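import Cfsg.Agent.H584.S8.HeRL

/-!
# S4908, the Held group: two conjugates of every element of `RL` generate (helper219)
-/

set_option autoImplicit false
set_option maxRecDepth 100000

namespace Cfsg.Agent.H219.S8.HeGen

open Subgroup Cfsg Cfsg.Agent.H409 Cfsg.Agent.H940 Cfsg.Agent.H940.Eng Cfsg.Agent.H940.Eng.D Cfsg.Agent.H147.Gen
open Cfsg.Spor.He (Gen)
open Cfsg.Agent.SporadicB.HePerm Cfsg.Agent.FixBN.HeStab Cfsg.Agent.KFacts.He.Lv Cfsg.Agent.CpAutHe.Cnt
open Cfsg.Agent.H547.SelfCent.HeRow (ne_one_of_act)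
open Cfsg.Agent.H147.Fpr.He (G cardG finG simpleG top_of orderOf_wd pow_eq)
open Cfsg.Agent.H19.Odd Cfsg.Agent.H19.Odd.HeEl Cfsg.Agent.H19.Odd.HeCnt
open Cfsg.Agent.H968.Gen.He Cfsg.Agent.H968.Gen
theorem v6 (B : Base) : CG 2 (wd (V7 ++ pw U7 6) : G) := cg_of_chk (n := 2) B (ne_one_of_act 0 (by decide +kernel)) [.g]
  (by norm_num) [false, true] 1 [false] 1 (by decide +kernel)
theorem x17 (B : Base) : CG 2 (wd X17 : G) := cg_of_chk (n := 2) B (ne_one_of_act 0 (by decide +kernel)) [.d, .e, .g, .e, .d]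
  (by norm_num) [false] 1 [false, true] 3 (by decide +kernel)
theorem xC (B : Base) : CG 2 (wd XC : G) := (cg_of_chk (n := 2) B C_ne [.e, .b, .f] (by norm_num) [false, true] 1
  [false] 1 (by decide +kernel))
theorem u7 (B : Base) : CG 2 (wd U7 : G) := (cg_of_chk (n := 2) B (ne_one_of_act 0 (by decide +kernel)) [.e, .d, .e] (by norm_num)
  [false, true] 1 [false] 1 (by decide +kernel))
theorem v1 (B : Base) : CG 2 (wd (V7 ++ pw U7 1) : G) := (cg_of_chk (n := 2) B (ne_one_of_act 0 (by decide +kernel)) [.f, .c]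
  (by norm_num) [false, true] 1 [false] 1 (by decide +kernel))
theorem v2 (B : Base) : CG 2 (wd (V7 ++ pw U7 2) : G) := (cg_of_chk (n := 2) B (ne_one_of_act 0 (by decide +kernel)) [.b, .f]
  (by norm_num) [false, false, true] 1 [false] 1 (by decide +kernel))
theorem v4 (B : Base) : CG 2 (wd (V7 ++ pw U7 4) : G) := (cg_of_chk (n := 2) B (ne_one_of_act 0 (by decide +kernel)) [.a, .e]
  (by norm_num) [false, true] 1 [false] 1 (by decide +kernel))
theorem two {a : G} (h : CG 2 a) : ∃ g h : Cfsg.Spor.He, Subgroup.closure ({g * a * g⁻¹, h * a * h⁻¹} : Set _) = ⊤ := by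
  obtain ⟨f, hf⟩ := h
  refine ⟨f 0, f 1, ?_⟩
  rw [← hf]
  congr 1
  ext x
  constructor
  · rintro (rfl | rfl)
    · exact ⟨0, rfl⟩
    · exact ⟨1, rfl⟩
  · rintro ⟨i, rfl⟩
    fin_cases i
    · exact Or.inl rfl
    · exact Or.inr rfl
theorem gen2 (B : Base) : ∀ a ∈ Cfsg.Agent.H584.S8.He.RL, ∃ g h : Cfsg.Spor.He, Subgroup.closure ({g * a * g⁻¹, h * a * h⁻¹} : Set _) = ⊤ := by
  intro a ha
  simp only [Cfsg.Agent.H584.S8.He.RL, List.mem_cons, List.not_mem_nil, or_false] at ha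
  rcases ha with rfl | rfl | rfl | rfl | rfl | rfl | rfl | rfl
  · exact two (xC B)
  · exact two (u7 B)
  · exact two (v1 B)
  · exact two (v2 B)
  · exact two (v4 B)
  · exact two (v6 B)
  · exact two (cg_X B)
  · exact two (x17 B)

end Cfsg.Agent.H219.S8.HeGen
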